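import Cfsg.Agent.J3M.Mult4
import Cfsg.Agent.J3M.Final
import Cfsg.Agent.MulX.Section
import Cfsg.Agent.CosetEnum.J3.M6
import Cfsg.Agent.CosetEnum.J3.KH

/-!
The multiplier of `J₃` has order at most three (owner: helper12).
-/
set_option autoImplicit false
set_option maxRecDepth 1000000

namespace Cfsg.Agent.J3M

open Cfsg Cfsg.Agent.CosetEnum Cfsg.Agent.CosetEnum.J3 Cfsg.Agent.MulX Subgroup
open scoped commutatorElement

universe u

/-- words that are trivial in `J₃` -/
def R2J : List (List ℕ) := [[6, 1, 6, 1], [6, 5, 6, 5], [6, 3, 3, 3, 3, 3, 6, 2, 2, 2, 2, 2], [6, 2, 6, 2, 6, 2],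
  [6, 3, 1, 2, 6, 2, 2, 2, 1, 3, 3, 3], [6, 4, 6, 4, 6, 4, 6, 4, 5], [3, 3, 6, 4, 2, 6, 3, 4, 2, 6, 3, 4, 6, 2, 4]]

/-- the exact relators -/
def H5 : List (List ℕ × ℕ) := J3M6.RL.take 7

/-- the commutators -/
def C5 : List (List ℕ × ℕ) := J3M6.RL.drop 7

theorem H5_eq : H5 = J3T4.RL ++ [([1, 5], 2), ([5, 4], 2), ([5, 2, 5, 3, 3, 3, 3], 1)] := by decide +kernel

theorem C5_ok : C5.all (fun p => p.2 == 1 && (R2J.any fun w => [1, 2, 3, 4, 5, 6].any fun x =>
    p.1 == red J3M6.iv (cmW J3M6.iv w x))) = true := by decide +kernel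

theorem R2J_ok : R2J.all (fun w => J3T6.RL.any fun p => w == expand p) = true := by decide +kernel

theorem R2J_one {w : List ℕ} (hw : w ∈ R2J) : (w.map qJ).prod = 1 := by
  have h1 := R2J_ok
  simp only [List.all_eq_true, List.any_eq_true, beq_iff_eq] at h1
  obtain ⟨p, hp, rfl⟩ := h1 w hw
  rw [prod_expand]
  exact UJ.good.rel p hp

/-! ### Involutions as conjugates of `e` -/

/-- `f` is conjugate to `e` -/
def cf : List ℕ := [2, 1, 4, 2, 6, 4, 2, 1, 3, 4, 6, 3, 4, 1, 3, 5, 2, 1, 4, 2, 6, 4, 2]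

/-- `t` is conjugate to `e` -/
def ct : List ℕ := [3, 1, 4, 3, 6, 4, 2, 1, 3, 4, 6, 2, 4, 1, 2, 6, 3, 1, 4, 3, 6, 4, 2]

def usC : List (List ℕ) := [cf ++ [1] ++ invW J3T6.iv cf ++ [5], ct ++ [1] ++ invW J3T6.iv ct ++ [6]]

theorem usC_one : ∀ u ∈ usC, (u.map qJ).prod = 1 :=
  LJ.rels FJ.1 (by decide +kernel) (Cov.of (c := 6156) (by decide +kernel) rfl)

theorem sq_one {x : ℕ} (hx : ivL J3T6.iv x = x) : qJ x * qJ x = 1 := by
  have h1 := UJ.good.inv x
  rw [hx] at h1
  nth_rewrite 1 [h1]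
  exact inv_mul_cancel _

theorem conj_f : ((cf.map qJ).prod) * qJ 1 * ((cf.map qJ).prod)⁻¹ = qJ 5 := by
  have h1 := usC_one _ (List.mem_cons_self)
  rw [List.map_append, List.map_append, List.map_append, List.prod_append, List.prod_append, List.prod_append,
    invW_prod UJ.good.inv] at h1
  simp only [List.map_cons, List.map_nil, List.prod_cons, List.prod_nil, mul_one] at h1
  rw [mul_eq_one_iff_eq_inv] at h1
  rw [h1]
  exact (UJ.good.inv 5).symm

theorem conj_t : ((ct.map qJ).prod) * qJ 1 * ((ct.map qJ).prod)⁻¹ = qJ 6 := by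
  have h1 := usC_one _ (List.mem_cons_of_mem _ List.mem_cons_self)
  rw [List.map_append, List.map_append, List.map_append, List.prod_append, List.prod_append, List.prod_append,
    invW_prod UJ.good.inv] at h1
  simp only [List.map_cons, List.map_nil, List.prod_cons, List.prod_nil, mul_one] at h1
  rw [mul_eq_one_iff_eq_inv] at h1
  rw [h1]
  exact (UJ.good.inv 6).symm

/-! ### The presented group with central relators -/

/-- the group -/
abbrev QM : Type := QG 6 J3M6.iv J3M6.RL

/-- its letters -/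
abbrev qM : ℕ → QM := qg 6 J3M6.iv J3M6.RL

theorem UM : Univ qM 6 J3M6.iv J3M6.RL := univ_qg _ _ _

theorem bdM : Bd (⊤ : Subgroup QM) 602795520 := by
  have g := UM.good
  rw [← UM.top]
  have h3 := (Bd.zero qM).cl (M := 240) J3K3.cert g (by decide +kernel) (by decide +kernel) (by norm_num) rfl
  have h4 := h3.cl (M := 4080) J3K4.cert g (by decide +kernel) (by decide +kernel) (by norm_num) rfl
  have h5 := h4.cl (M := 8160) J3K5.cert g (by decide +kernel) (by decide +kernel) (by norm_num) rfl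
  exact h5.cl (M := 602795520) J3M6.cert g (by decide +kernel) (by decide +kernel) (by norm_num) rfl

/-- the abelian quotient of order four -/
abbrev V4 : Type := Multiplicative (ZMod 2 × ZMod 2)

/-- signs of the letters -/
def sg (x : ℕ) : V4 := if x = 5 then Multiplicative.ofAdd (1, 0) else if x = 6 then Multiplicative.ofAdd (0, 1) else 1

theorem sg_good : Good sg 6 J3M6.iv J3M6.RL where
  inv x := by
    have key : ∀ v : V4, v⁻¹ = v := by decide +kernel
    rw [key]
    match x with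
    | 0 => rfl
    | 1 => rfl
    | 2 => rfl
    | 3 => rfl
    | 4 => rfl
    | 5 => rfl
    | 6 => rfl
    | (n + 7) => rfl
  one x hx := by
    match x, hx with
    | 0, _ => rfl
    | 1, h => exact absurd h (by decide)
    | 2, h => exact absurd h (by decide)
    | 3, h => exact absurd h (by decide)
    | 4, h => exact absurd h (by decide)
    | 5, h => exact absurd h (by decide)
    | 6, h => exact absurd h (by decide)
    | (n + 7), _ => rfl
  rel := by
    have h1 : J3M6.RL.all (fun p => decide ((p.1.map sg).prod ^ p.2 = 1)) = true := by decide +kernel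
    simpa only [List.all_eq_true, decide_eq_true_eq] using h1

theorem card_comm_QM : Finite QM ∧ Nat.card (commutator QM) ≤ 150698880 := by
  obtain ⟨hfin, hle⟩ := finite_of_bd bdM
  refine ⟨hfin, ?_⟩
  obtain ⟨χ, hχ⟩ := qg_univ sg_good
  have hs : Function.Surjective χ := by
    have h1 : ∀ v : V4, v = 1 ∨ v = sg 5 ∨ v = sg 6 ∨ v = sg 5 * sg 6 := by decide +kernel
    intro v
    rcases h1 v with rfl | rfl | rfl | rfl
    · exact ⟨1, map_one χ⟩
    · exact ⟨qM 5, hχ 5⟩
    · exact ⟨qM 6, hχ 6⟩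
    · exact ⟨qM 5 * qM 6, by rw [map_mul, hχ, hχ]⟩
  have h1 : commutator QM ≤ χ.ker := Abelianization.commutator_subset_ker χ
  have h2 : Nat.card χ.ker * 4 = Nat.card QM := by
    have h3 := χ.ker.card_mul_index
    rw [Subgroup.index_ker, MonoidHom.range_eq_top.2 hs, Subgroup.card_top] at h3
    have h4 : Nat.card V4 = 4 := by
      rw [Nat.card_congr (Multiplicative.toAdd (α := ZMod 2 × ZMod 2)), Nat.card_prod, Nat.card_zmod]
    rwa [h4] at h3
  have h3 := Subgroup.card_le_of_le h1
  have h5 : Nat.card χ.ker ≤ 150698880 := by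
    have h6 : Nat.card χ.ker * 4 ≤ 602795520 := h2.trans_le hle
    omega
  exact h3.trans h5

end Cfsg.Agent.J3M
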