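import Cfsg.Agent.CosetEnum.J3.Pres
import Cfsg.Agent.CosetEnum.J3.ML
import Cfsg.Agent.MulX.Main

/-!
The group `L₂(16)` has trivial multiplier (owner: helper12).
-/
set_option autoImplicit false
set_option maxRecDepth 1000000

namespace Cfsg.Agent.J3M

open Cfsg Cfsg.Agent.CosetEnum Cfsg.Agent.CosetEnum.J3 Cfsg.Agent.MulX

universe u

/-- exact relators -/
def R1L : List (ℕ × List ℕ) := [(3, [3, 3, 3, 3, 3, 3, 3, 3, 3, 3, 3, 3, 3, 3, 3, 4, 5, 4, 6, 4, 5, 4, 6, 4, 5, 4, 6, 4, 5, 4, 6, 4, 5, 4, 6, 4, 5, 4, 6, 4, 5, 4, 6]), (1, [1, 4, 4, 4, 1, 3, 3, 3, 4, 4, 4, 4, 1, 3, 3, 3, 3, 2, 2]), (5, [1, 5, 1, 5, 1, 5, 6, 6])]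

/-- central relators -/
def R2L : List (List ℕ) := [[1, 1], [5, 5], [5, 3, 5, 3], [1, 4, 4, 4, 1, 4, 1, 3, 3, 3, 3], [1, 5, 1, 5, 1, 5]]

/-- the letters `e, e⁻¹, y, y⁻¹, n, n⁻¹` -/
def plL : List ℕ := [1, 1, 2, 3, 4, 4]

/-- the family of the letters -/
abbrev gL : ℕ → Q4 := ren q4 6 plL

theorem gL_good : Good gL 6 J3ML.iv [] := U4.good.ren (by decide +kernel)

/-- words in the letters `e, y, y⁻¹, n` -/
def usL : List (List ℕ) := (R1L.map Prod.snd ++ R2L).map (List.map fun x => plL.getD (x - 1) 0)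

theorem usL_one : ∀ u ∈ usL, (u.map q4).prod = 1 :=
  L4.rels F4.1 (by decide +kernel) (Cov.of (c := 17) (by decide +kernel) rfl)

theorem gL_word {w : List ℕ} (hw : wOK 6 w = true) :
    (w.map gL).prod = ((w.map fun x => plL.getD (x - 1) 0).map q4).prod := by
  rw [List.map_map]
  congr 1
  apply List.map_congr_left
  intro x hx
  simp only [wOK, List.all_eq_true] at hw
  show ren q4 6 plL x = _
  unfold ren
  rw [if_pos (hw x hx)]
  rfl

theorem perfect4 : commutator Q4 = ⊤ := perfect_of U4.good U4.top (lets := J3T4.lets) J3KQ.cert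

theorem cpL : CP gL 6 J3ML.iv R1L R2L J3ML.RL where
  lets := by decide +kernel
  tri := by decide +kernel
  rel := by decide +kernel
  cov := by decide +kernel
  inv := gL_good.inv
  one := gL_good.one
  ex := by
    intro q hq
    have h1 : R1L.all (fun q => wOK 6 q.2) = true := by decide +kernel
    rw [gL_word (by simp only [List.all_eq_true] at h1; exact h1 q hq)]
    apply usL_one
    apply List.mem_map_of_mem
    apply List.mem_append_left
    exact List.mem_map_of_mem hq
  ce := by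
    intro w hw
    have h1 : R2L.all (fun w => wOK 6 w) = true := by decide +kernel
    rw [gL_word (by simp only [List.all_eq_true] at h1; exact h1 w hw)]
    apply usL_one
    apply List.mem_map_of_mem
    exact List.mem_append_right _ hw
  top := by
    rw [Cl_ren q4 (show plL.length = 6 from rfl), ← U4.top]
    unfold ClL Cl
    congr 1
    ext z
    constructor
    · rintro ⟨x, hx, rfl⟩
      refine ⟨x, ?_, rfl⟩
      have hx : x ∈ plL := hx
      simp only [plL, List.mem_cons, List.not_mem_nil, or_false] at hx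
      show isLet 4 x = true
      rcases hx with rfl | rfl | rfl | rfl | rfl | rfl <;> rfl
    · rintro ⟨x, hx, rfl⟩
      refine ⟨x, ?_, rfl⟩
      have hx : isLet 4 x = true := hx
      rw [isLet_iff] at hx
      show x ∈ plL
      simp only [plL, List.mem_cons, List.not_mem_nil, or_false]
      omega

theorem bdL : Bd (⊤ : Subgroup (QG 6 J3ML.iv J3ML.RL)) (4080 * 1) := by
  have U := univ_qg 6 J3ML.iv J3ML.RL
  rw [← U.top]
  exact (Bd.zero (qg 6 J3ML.iv J3ML.RL)).cl (M := 4080 * 1) J3ML.cert U.good (by decide +kernel) (by decide +kernel)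
    (by norm_num) rfl

/-- `L₂(16)` has trivial multiplier -/
theorem mult4 {Γ : Type u} [Group Γ] {σ : Γ →* Q4} (hσ : IsStemExtension σ) : Nat.card σ.ker ≤ 1 :=
  cpL.card_ker_le card4 (by norm_num) bdL hσ

end Cfsg.Agent.J3M
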