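import Cfsg.Agent.J3M.Upper

/-!
The Schur multiplier of `J₃` of the definition (owner: helper12).
-/
set_option autoImplicit false
set_option maxRecDepth 1000000

namespace Cfsg.Agent.J3M

open Cfsg Cfsg.Spor Cfsg.Agent.CosetEnum Cfsg.Agent.CosetEnum.J3 Subgroup

universe u

variable {F : Type u} [Field F] {ω : F}

theorem perfect_hat : commutator (QG 6 J3T6.iv RL0) = ⊤ :=
  perfect_of (univ_qg 6 J3T6.iv RL0).good (univ_qg 6 J3T6.iv RL0).top (lets := J3T6.lets) J3KH.cert

theorem perfect_threeJ3 (h : Om ω) : commutator (threeJ3 F ω) = ⊤ := by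
  obtain ⟨φ, hφ⟩ := qg_univ (gm_good h)
  have hs : φ.range = ⊤ := by
    rw [Cfsg.Agent.MulX.range_eq_Cl φ hφ (Cfsg.Agent.MulX.qg_top _ _ _), gm_top h]
  have h1 : (commutator (QG 6 J3T6.iv RL0)).map φ = commutator (threeJ3 F ω) := by
    rw [commutator_def, commutator_def, Subgroup.map_commutator, ← MonoidHom.range_eq_map, hs]
  rw [← h1, perfect_hat, ← MonoidHom.range_eq_map, hs]

theorem mult_J3 (h : Om ω) : HasCyclicSchurMultiplier (Cfsg.Spor.J3 F ω) 3 := by
  obtain ⟨h1, h2, h3, e, _⟩ := main h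
  have hcard : Nat.card (Multiplicative (ZMod 3)) = 3 := by
    rw [Nat.card_congr Multiplicative.toAdd, Nat.card_zmod]
  have : NeZero 3 := ⟨by norm_num⟩
  have hfinA : Finite (Multiplicative (ZMod 3)) := Finite.of_equiv (ZMod 3) Multiplicative.ofAdd
  have hfin : Finite (threeJ3 F ω) := Nat.finite_of_card_ne_zero (by rw [h2]; norm_num)
  apply Cfsg.Agent.SchurMult.hasSchurMultiplier_of_card_le
  · refine ⟨threeJ3 F ω, inferInstance, hfin, QuotientGroup.mk' (center (threeJ3 F ω)),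
      ⟨QuotientGroup.mk'_surjective _, ?_, ?_⟩, ?_⟩
    · rw [QuotientGroup.ker_mk']
    · rw [perfect_threeJ3 h]
      exact le_top
    · rw [QuotientGroup.ker_mk']
      have hp : Fact (Nat.Prime 3) := ⟨by norm_num⟩
      exact ⟨mulEquivOfPrimeCardEq h1 hcard⟩
  · intro Γ _ _ σ hσ
    rw [hcard]
    have h4 := Cfsg.Agent.SchurMult.IsStemExtension.equiv_comp σ hσ e.symm
    have h5 : (e.symm.toMonoidHom.comp σ).ker = σ.ker := by
      ext x
      simp [MonoidHom.mem_ker]
    rw [← h5]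
    exact upper h4

end Cfsg.Agent.J3M
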