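import Cfsg.Agent.J3M.Final
import Cfsg.Agent.CosetEnum.He.K4
import Cfsg.Prelude.Def_Classical

/-!
`3·J₃` is a subgroup of `SU₉(2)` (owner: helper12).
-/

set_option autoImplicit false
set_option maxRecDepth 1000000

namespace Cfsg.Agent.J3M

open Cfsg.Spor Cfsg.Agent.CosetEnum Cfsg.Agent.CosetEnum.J3
open scoped MatrixGroups

/-- the inverse of a letter is its conjugate transpose -/
def chkU : Bool := [1, 2, 3, 4, 5, 6].all fun x => (List.range 9).all fun k => (List.range 9).all fun i =>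
  (((tab (ivL J3T6.iv x)).getD (2 * k) 0).testBit (2 * i) ==
    xor (((tab x).getD (2 * i) 0).testBit (2 * k)) (((tab x).getD (2 * i) 0).testBit (2 * k + 1))) &&
  (((tab (ivL J3T6.iv x)).getD (2 * k) 0).testBit (2 * i + 1) == ((tab x).getD (2 * i) 0).testBit (2 * k + 1))

theorem chkU_ok : chkU = true := by decide +kernel

section

variable {F : Type*} [Field F] {ω : F}

theorem inv_eq (h : Om ω) {x : ℕ} (hx : isLet 6 x = true) (k i : Fin 9) :
    matT ω (tab (ivL J3T6.iv x)) k i = (matT ω (tab x) i k) ^ 2 := by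
  have h1 := chkU_ok
  simp only [chkU, List.all_eq_true, Bool.and_eq_true, List.mem_range, beq_iff_eq] at h1
  have h2 : x ∈ [1, 2, 3, 4, 5, 6] := by
    rw [isLet_iff] at hx
    simp only [List.mem_cons, List.not_mem_nil, or_false]
    omega
  obtain ⟨h3, h4⟩ := h1 x h2 k k.2 i i.2
  show cv ω _ i = (cv ω ((tab x).getD (2 * (i : ℕ)) 0) k) ^ 2
  unfold cv
  rw [h3, h4]
  have h5 : ω ^ 2 = 1 + ω := by linear_combination h.om - ω * h.two - h.two
  cases ((tab x).getD (2 * (i : ℕ)) 0).testBit (2 * k) <;>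
    cases ((tab x).getD (2 * (i : ℕ)) 0).testBit (2 * k + 1) <;> simp
  · exact h5.symm
  · linear_combination - h5 - (1 + ω) * h.two

theorem letter_unitary (h : Om ω) {x : ℕ} (hx : isLet 6 x = true) :
    uL h x ∈ preserving (Units.coeHom (Matrix (Fin 9) (Fin 9) F)) (hermForm 9 F 2) := by
  intro u v
  show hermForm 9 F 2 ((uL h x : Matrix (Fin 9) (Fin 9) F).mulVec u) ((uL h x : Matrix (Fin 9) (Fin 9) F).mulVec v) = _
  rw [uL_coe h hx]
  have hch : CharP F 2 := CharTwo.of_one_ne_zero_of_two_eq_zero one_ne_zero (by rw [← one_add_one_eq_two]; exact h.two)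
  set M := matT ω (tab x) with hM
  set M' := matT ω (tab (ivL J3T6.iv x)) with hM'
  have h1 : M' * M = 1 := by
    have h1 := h.mul_iv (iv_iv hx).2
    rwa [(iv_iv hx).1] at h1
  have h2 : ∀ i, (M.mulVec v i) ^ 2 = ∑ j, M' j i * v j ^ 2 := by
    intro i
    show (∑ j, M i j * v j) ^ 2 = _
    rw [sum_pow_char 2]
    apply Finset.sum_congr rfl
    intro j _
    rw [mul_pow, show M i j ^ 2 = M' j i from (inv_eq h hx j i).symm]
  show ∑ i, M.mulVec u i * (M.mulVec v i) ^ 2 = ∑ i, u i * v i ^ 2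
  simp only [h2]
  have h3 : ∀ i, M.mulVec u i * ∑ j, M' j i * v j ^ 2 = ∑ j, ∑ l, v j ^ 2 * (M' j i * M i l) * u l := by
    intro i
    rw [Finset.mul_sum]
    apply Finset.sum_congr rfl
    intro j _
    show (∑ l, M i l * u l) * _ = _
    rw [Finset.sum_mul]
    apply Finset.sum_congr rfl
    intro l _
    ring
  simp only [h3]
  rw [Finset.sum_comm]
  apply Finset.sum_congr rfl
  intro j _
  rw [Finset.sum_comm]
  have h4 : ∀ l, ∑ i, v j ^ 2 * (M' j i * M i l) * u l = v j ^ 2 * (M' * M) j l * u l := by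
    intro l
    rw [← Finset.sum_mul, ← Finset.mul_sum]
    rfl
  simp only [h4, h1, Matrix.one_apply]
  rw [Finset.sum_eq_single j]
  · simp
    ring
  · intro l _ hl
    rw [if_neg (Ne.symm hl)]
    ring
  · simp

theorem det_sq (h : Om ω) {d : F} (hd : d * d = 1) : d = 1 := by
  have h1 : (d - 1) ^ 2 = 0 := by linear_combination hd + h.two - d * h.two
  have h2 := pow_eq_zero_iff (two_ne_zero) |>.1 h1
  exact sub_eq_zero.1 h2

theorem letter_det (h : Om ω) {x : ℕ} (hx : isLet 6 x = true) : Matrix.GeneralLinearGroup.det (uL h x) = 1 := by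
  have key : ∀ g : GL (Fin 9) F, Matrix.GeneralLinearGroup.det g * Matrix.GeneralLinearGroup.det g = 1 →
      Matrix.GeneralLinearGroup.det g = 1 := by
    intro g hg
    apply Units.ext
    apply det_sq h
    have := congrArg (fun u : Fˣ => (u : F)) hg
    simpa using this
  have hg := uL_good h
  have hinv : ∀ x, ivL J3T6.iv x = x → Matrix.GeneralLinearGroup.det (uL h x) = 1 := by
    intro x hx
    apply key
    rw [← map_mul]
    have h1 := hg.inv x
    rw [hx] at h1
    nth_rewrite 1 [h1]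
    rw [inv_mul_cancel, map_one]
  have hy : Matrix.GeneralLinearGroup.det (uL h 2) = 1 := by
    apply key
    have h1 := congrArg (Matrix.GeneralLinearGroup.det) (hg.rel ([4, 2], 2) (by decide +kernel))
    simp only [List.map_cons, List.map_nil, List.prod_cons, List.prod_nil, mul_one, map_pow, map_mul, map_one] at h1
    rw [hinv 4 (by decide +kernel), one_mul, pow_two] at h1
    exact h1
  rw [isLet_iff] at hx
  match x, hx with
  | 1, _ => exact hinv 1 (by decide +kernel)
  | 2, _ => exact hy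
  | 3, _ =>
    have h1 : uL h 3 = (uL h 2)⁻¹ := hg.inv 2
    rw [h1, map_inv, hy, inv_one]
  | 4, _ => exact hinv 4 (by decide +kernel)
  | 5, _ => exact hinv 5 (by decide +kernel)
  | 6, _ => exact hinv 6 (by decide +kernel)
  | (n + 7), hn => omega

theorem le_unitary (h : Om ω) : Cl (uL h) 6 ≤ preserving (Units.coeHom (Matrix (Fin 9) (Fin 9) F)) (hermForm 9 F 2) := by
  unfold Cl
  rw [Subgroup.closure_le]
  rintro _ ⟨x, hx, rfl⟩
  exact letter_unitary h hx

theorem le_det (h : Om ω) : Cl (uL h) 6 ≤ (Matrix.GeneralLinearGroup.det : GL (Fin 9) F →* Fˣ).ker := by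
  unfold Cl
  rw [Subgroup.closure_le]
  rintro _ ⟨x, hx, rfl⟩
  exact letter_det h hx

theorem det_one (h : Om ω) (g : Cl (uL h) 6) : Matrix.det ((g : GL (Fin 9) F) : Matrix (Fin 9) (Fin 9) F) = 1 := by
  have h1 := le_det h g.2
  rw [MonoidHom.mem_ker] at h1
  have h2 : ((Matrix.GeneralLinearGroup.det (g : GL (Fin 9) F) : Fˣ) : F) = 1 := by rw [h1]; rfl
  rwa [Matrix.GeneralLinearGroup.val_det_apply] at h2

/-- the embedding into `SL₉` -/
noncomputable def toSL (h : Om ω) : Cl (uL h) 6 →* Matrix.SpecialLinearGroup (Fin 9) F where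
  toFun g := ⟨((g : GL (Fin 9) F) : Matrix (Fin 9) (Fin 9) F), det_one h g⟩
  map_one' := rfl
  map_mul' _ _ := rfl

/-- the embedding into `SU₉(2)` -/
noncomputable def toSU (h : Om ω) : Cl (uL h) 6 →* SU 9 F 2 :=
  (toSL h).codRestrict (SU 9 F 2) fun g => by
    have h1 := le_unitary h g.2
    exact fun u v => h1 u v

theorem toSU_inj (h : Om ω) : Function.Injective (toSU h) := by
  intro a b hab
  have h1 : toSL h a = toSL h b := congrArg Subtype.val hab
  apply Subtype.ext
  apply Units.ext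
  exact congrArg Subtype.val h1

/-- the subgroup of `SU₉(2)` -/
noncomputable def HU (h : Om ω) : Subgroup (SU 9 F 2) := (toSU h).range

theorem HU_equiv (h : Om ω) : Nonempty (HU h ≃* threeJ3 F ω) := by
  have e1 : Cl (uL h) 6 ≃* HU h := MonoidHom.ofInjective (toSU_inj h)
  have e2 : Cl (uL h) 6 ≃* threeJ3 F ω :=
    ((Cl (uL h) 6).equivMapOfInjective tF.toMonoidHom tF.injective).trans (MulEquiv.subgroupCongr (threeJ3_eq h).symm)
  exact ⟨e1.symm.trans e2⟩

end

theorem exists_SU : ∃ (F : Type) (_ : Field F) (_ : Fintype F), Fintype.card F = 4 ∧ ∃ H : Subgroup (Cfsg.SU 9 F 2),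
    Nat.card (Subgroup.center H) = 3 ∧ Cfsg.IsJ3 (H ⧸ Subgroup.center H) := by
  have hω : (He.K4.ofN 2) ^ 2 + He.K4.ofN 2 + 1 = 0 := by decide +kernel
  have h : Om (He.K4.ofN 2) := Om.of_card He.K4.card_K4 hω
  obtain ⟨h1, _, _, e, _⟩ := main h
  obtain ⟨E⟩ := HU_equiv h
  refine ⟨He.K4, inferInstance, inferInstance, He.K4.card_K4, HU h, ?_, ?_⟩
  · rw [← h1]
    exact Nat.card_congr (Subgroup.centerCongr E).toEquiv
  · have hmap : (Subgroup.center (HU h)).map (E : HU h →* threeJ3 He.K4 (He.K4.ofN 2)) =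
        Subgroup.center (threeJ3 He.K4 (He.K4.ofN 2)) := by
      ext x
      constructor
      · rintro ⟨y, hy, rfl⟩
        rw [Subgroup.mem_center_iff]
        intro g
        obtain ⟨g', rfl⟩ := E.surjective g
        show E g' * E y = E y * E g'
        rw [← map_mul, ← map_mul, Subgroup.mem_center_iff.1 hy g']
      · intro hx
        obtain ⟨y, rfl⟩ := E.surjective x
        refine ⟨y, ?_, rfl⟩
        show y ∈ Subgroup.center (HU h)
        rw [Subgroup.mem_center_iff]
        intro g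
        apply E.injective
        rw [map_mul, map_mul, Subgroup.mem_center_iff.1 hx (E g)]
    let Q := QuotientGroup.congr (Subgroup.center (HU h)) (Subgroup.center (threeJ3 He.K4 (He.K4.ofN 2))) E hmap
    have e2 : QJ ≃* (HU h ⧸ Subgroup.center (HU h)) := e.trans Q.symm
    refine ⟨simple_equiv e2 simple_J, ?_⟩
    rw [← card_J]
    exact (Nat.card_congr e2.toEquiv).symm

end Cfsg.Agent.J3M
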