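import Cfsg.Agent.J3M.Mult
import Cfsg.Agent.CosetEnum.Faith
import Cfsg.Agent.CosetEnum.Cox

/-!
The Schur multiplier of `J₃` is cyclic of order three (owner: helper12).
-/
set_option autoImplicit false
set_option maxRecDepth 1000000

namespace Cfsg.Agent.J3M

open Cfsg Cfsg.Agent.CosetEnum Cfsg.Agent.CosetEnum.J3 Cfsg.Agent.MulX Subgroup
open scoped commutatorElement

universe u

/-- the embedding of `L₂(16)` -/
noncomputable def iota : Q4 →* QJ := (Cl qJ 4).subtype.comp iso4.choose.toMonoidHom

theorem iota_inj : Function.Injective iota := (Cl qJ 4).subtype_injective.comp iso4.choose.injective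

theorem iota_q {x : ℕ} (hx : isLet 4 x = true) : iota (q4 x) = qJ x := iso4.choose_spec x hx

theorem iota_word {w : List ℕ} (hw : wOK 4 w = true) : iota (w.map q4).prod = (w.map qJ).prod :=
  hom_word iota (fun _ hy => iota_q hy) hw

theorem iota_range : iota.range = Cl qJ 4 := by
  unfold iota
  rw [MonoidHom.range_comp, MonoidHom.range_eq_top.2 iso4.choose.surjective, ← MonoidHom.range_eq_map,
    Subgroup.range_subtype]

/-- `f` normalises `L₂(16)` -/
theorem norm_f (x : Q4) : ∃ x', qJ 5 * iota x * (qJ 5)⁻¹ = iota x' := by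
  have h1 : (⟨qJ 5, mem_Cl qJ rfl⟩ : Cl qJ 5) * ⟨iota x, N_le (by rw [← iota_range]; exact ⟨x, rfl⟩)⟩ *
      (⟨qJ 5, mem_Cl qJ rfl⟩ : Cl qJ 5)⁻¹ ∈ (Cl qJ 4).subgroupOf (Cl qJ 5) := by
    apply (Subgroup.normal_of_index_eq_two index_N).conj_mem
    show iota x ∈ Cl qJ 4
    rw [← iota_range]
    exact ⟨x, rfl⟩
  have h2 : qJ 5 * iota x * (qJ 5)⁻¹ ∈ Cl qJ 4 := h1
  rw [← iota_range] at h2
  obtain ⟨x', hx'⟩ := h2
  exact ⟨x', hx'.symm⟩

theorem exists_family {Γ : Type u} [Group Γ] [Finite Γ] {σ : Γ →* QJ} (hσ : IsStemExtension σ) :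
    ∃ h : ℕ → Γ, Good h 6 J3M6.iv J3M6.RL ∧ ∀ x, σ (h x) = qJ x := by
  obtain ⟨s, hs1, hs2⟩ := exists_section hσ.1 hσ.2.1 iota iota_inj perfect4 (fun D _ _ τ hτ => mult4 hτ)
  obtain ⟨a, ha⟩ := hσ.1 ((cf.map qJ).prod)
  obtain ⟨b, hb⟩ := hσ.1 ((ct.map qJ).prod)
  have hinv4 := U4.good.inv
  have hq1 : q4 1 * q4 1 = 1 := by
    nth_rewrite 1 [show q4 1 = (q4 1)⁻¹ from hinv4 1]
    exact inv_mul_cancel _
  have hsq : s (q4 1) * s (q4 1) = 1 := by rw [← map_mul, hq1, map_one]
  set f' := a * s (q4 1) * a⁻¹ with hf'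
  set t' := b * s (q4 1) * b⁻¹ with ht'
  have hf1 : f' * f' = 1 := by
    have : f' * f' = a * (s (q4 1) * s (q4 1)) * a⁻¹ := by rw [hf']; group
    rw [this, hsq]
    group
  have ht1 : t' * t' = 1 := by
    have : t' * t' = b * (s (q4 1) * s (q4 1)) * b⁻¹ := by rw [ht']; group
    rw [this, hsq]
    group
  have hσf : σ f' = qJ 5 := by
    rw [hf', map_mul, map_mul, map_inv, ha, hs1, iota_q rfl, conj_f]
  have hσt : σ t' = qJ 6 := by
    rw [ht', map_mul, map_mul, map_inv, hb, hs1, iota_q rfl, conj_t]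
  have hconj : ∀ x x', qJ 5 * iota x * (qJ 5)⁻¹ = iota x' → f' * s x * f'⁻¹ = s x' := by
    intro x x' hxx'
    apply hs2 f' _ x x'
    · rw [hσf]
      exact hxx'
    · intro x
      rw [hσf]
      exact norm_f x
  have hfinv : f'⁻¹ = f' := by rw [inv_eq_iff_mul_eq_one]; exact hf1
  have htinv : t'⁻¹ = t' := by rw [inv_eq_iff_mul_eq_one]; exact ht1
  -- the family
  let h : ℕ → Γ := fun x => if x = 5 then f' else if x = 6 then t' else s (q4 x)
  have h5 : h 5 = f' := rfl
  have h6 : h 6 = t' := rfl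
  have h4 : ∀ x, isLet 4 x = true → h x = s (q4 x) := by
    intro x hx
    rw [isLet_iff] at hx
    show (if x = 5 then f' else if x = 6 then t' else s (q4 x)) = _
    rw [if_neg (by omega), if_neg (by omega)]
  have hone : ∀ x, isLet 6 x = false → h x = 1 := by
    intro x hx
    have h7 : ¬ isLet 6 x = true := by rw [hx]; exact Bool.false_ne_true
    rw [isLet_iff] at h7
    show (if x = 5 then f' else if x = 6 then t' else s (q4 x)) = _
    rw [if_neg (by omega), if_neg (by omega), U4.good.one x (by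
      by_contra hc
      rw [Bool.not_eq_false, isLet_iff] at hc
      omega), map_one]
  have hmap : ∀ x, σ (h x) = qJ x := by
    intro x
    by_cases hx : isLet 4 x = true
    · rw [h4 x hx, hs1, iota_q hx]
    · by_cases hx5 : x = 5
      · rw [hx5, h5, hσf]
      · by_cases hx6 : x = 6
        · rw [hx6, h6, hσt]
        · have hx7 : isLet 6 x = false := by
            by_contra hc
            rw [Bool.not_eq_false, isLet_iff] at hc
            rw [isLet_iff] at hx
            omega
          rw [hone x hx7, map_one, UJ.good.one x hx7]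
  have hiv : ∀ x, h (ivL J3M6.iv x) = (h x)⁻¹ := by
    intro x
    match x with
    | 0 =>
      have e1 : h 0 = 1 := hone 0 rfl
      show h 0 = (h 0)⁻¹
      rw [e1, inv_one]
    | 1 =>
      show h 1 = (h 1)⁻¹
      rw [h4 1 rfl, ← map_inv, ← hinv4 1]
      rfl
    | 2 =>
      show h 3 = (h 2)⁻¹
      rw [h4 3 rfl, h4 2 rfl, ← map_inv, ← hinv4 2]
      rfl
    | 3 =>
      show h 2 = (h 3)⁻¹
      rw [h4 3 rfl, h4 2 rfl, ← map_inv, ← hinv4 3]
      rfl
    | 4 =>
      show h 4 = (h 4)⁻¹
      rw [h4 4 rfl, ← map_inv, ← hinv4 4]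
      rfl
    | 5 => exact hfinv.symm
    | 6 => exact htinv.symm
    | (n + 7) =>
      have e1 : ivL J3M6.iv (n + 7) = n + 7 := by
        apply ivL_of_not (k := 6) _ (by rw [isLet_iff]; omega)
        decide +kernel
      rw [e1, hone (n + 7) (isLet_false (by omega)), inv_one]
  have hw4 : ∀ w : List ℕ, wOK 4 w = true → (w.map h).prod = s ((w.map q4).prod) := by
    intro w hw
    rw [map_list_prod, List.map_map]
    congr 1
    apply List.map_congr_left
    intro x hx
    simp only [wOK, List.all_eq_true] at hw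
    exact h4 x (hw x hx)
  have hword : ∀ w : List ℕ, σ ((w.map h).prod) = (w.map qJ).prod := by
    intro w
    rw [map_list_prod, List.map_map]
    congr 1
    apply List.map_congr_left
    intro x _
    exact hmap x
  refine ⟨h, ⟨hiv, hone, ?_⟩, hmap⟩
  intro p hp
  rw [← List.take_append_drop 7 J3M6.RL, List.mem_append] at hp
  rcases hp with hp | hp
  · have hp : p ∈ H5 := hp
    rw [H5_eq, List.mem_append] at hp
    rcases hp with hp | hp
    · have h7 : J3T4.RL.all (fun p => wOK 4 p.1) = true := by decide +kernel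
      simp only [List.all_eq_true] at h7
      rw [hw4 p.1 (h7 p hp), ← map_pow, U4.good.rel p hp, map_one]
    · -- the relators with `f`
      have hfe : f' * s (q4 1) * f'⁻¹ = s (q4 1) := by
        apply hconj
        have h7 := UJ.good.rel ([1, 5], 2) (by decide +kernel)
        simp only [List.map_cons, List.map_nil, List.prod_cons, List.prod_nil, mul_one, pow_two] at h7
        rw [iota_q rfl, mul_inv_eq_iff_eq_mul]
        have h8 := UJ.good.inv 1
        have h9 := UJ.good.inv 5
        have e1 : (qJ 1 * qJ 5)⁻¹ = qJ 5 * qJ 1 := by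
          rw [mul_inv_rev]
          exact congrArg₂ (· * ·) h9.symm h8.symm
        rw [← e1, inv_eq_iff_mul_eq_one]
        exact h7
      have hfn : f' * s (q4 4) * f'⁻¹ = s (q4 4) := by
        apply hconj
        have h7 := UJ.good.rel ([5, 4], 2) (by decide +kernel)
        simp only [List.map_cons, List.map_nil, List.prod_cons, List.prod_nil, mul_one, pow_two] at h7
        rw [iota_q rfl, mul_inv_eq_iff_eq_mul]
        have h8 := UJ.good.inv 4
        have h9 := UJ.good.inv 5
        have e1 : (qJ 5 * qJ 4)⁻¹ = qJ 4 * qJ 5 := by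
          rw [mul_inv_rev]
          exact congrArg₂ (· * ·) h8.symm h9.symm
        rw [← e1, eq_inv_iff_mul_eq_one]
        exact h7
      have hfy : f' * s (q4 2) * f'⁻¹ = s (q4 2 ^ 4) := by
        apply hconj
        have h7 := UJ.good.rel ([5, 2, 5, 3, 3, 3, 3], 1) (by decide +kernel)
        simp only [List.map_cons, List.map_nil, List.prod_cons, List.prod_nil, mul_one, pow_one] at h7
        have h8 : qJ 3 = (qJ 2)⁻¹ := UJ.good.inv 2
        have h9 : (qJ 5)⁻¹ = qJ 5 := (UJ.good.inv 5).symm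
        rw [map_pow, iota_q rfl, h9, ← mul_inv_eq_one]
        rw [← h7, h8]
        simp only [pow_succ, pow_zero, one_mul, mul_inv_rev, mul_assoc]
      simp only [List.mem_cons, List.not_mem_nil, or_false] at hp
      rcases hp with rfl | rfl | rfl
      · simp only [List.map_cons, List.map_nil, List.prod_cons, List.prod_nil, mul_one, pow_two, h5, h4 1 rfl]
        rw [mul_assoc, ← mul_assoc f']
        nth_rewrite 2 [← hfinv]
        rw [hfe, hsq]
      · have hq4 : q4 4 * q4 4 = 1 := by
          nth_rewrite 1 [show q4 4 = (q4 4)⁻¹ from hinv4 4]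
          exact inv_mul_cancel _
        simp only [List.map_cons, List.map_nil, List.prod_cons, List.prod_nil, mul_one, pow_two, h5, h4 4 rfl]
        rw [← mul_assoc]
        nth_rewrite 2 [← hfinv]
        rw [hfn, ← map_mul, hq4, map_one]
      · simp only [List.map_cons, List.map_nil, List.prod_cons, List.prod_nil, mul_one, pow_one, h5, h4 2 rfl, h4 3 rfl]
        have h8 : q4 3 = (q4 2)⁻¹ := hinv4 2
        rw [← mul_assoc, ← mul_assoc]
        nth_rewrite 2 [← hfinv]
        rw [hfy, h8, ← map_mul, ← map_mul, ← map_mul, ← map_mul]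
        have e1 : q4 2 ^ 4 * ((q4 2)⁻¹ * ((q4 2)⁻¹ * ((q4 2)⁻¹ * (q4 2)⁻¹))) = 1 := by group
        rw [e1, map_one]
  · have hp : p ∈ C5 := hp
    have h7 := C5_ok
    simp only [List.all_eq_true, Bool.and_eq_true, List.any_eq_true, beq_iff_eq] at h7
    obtain ⟨h8, w, hw, x, _, h9⟩ := h7 p hp
    rw [h8, pow_one, h9, red_prod hiv, cmW_prod hiv]
    have h10 : (w.map h).prod ∈ center Γ := by
      apply hσ.2.1
      rw [MonoidHom.mem_ker, hword, R2J_one hw]
    rw [(Subgroup.mem_center_iff.1 h10 (h x)).symm]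
    group

theorem upper {Γ : Type u} [Group Γ] [Finite Γ] {σ : Γ →* QJ} (hσ : IsStemExtension σ) : Nat.card σ.ker ≤ 3 := by
  obtain ⟨h, hg, hmap⟩ := exists_family hσ
  obtain ⟨φ, hφ⟩ := qg_univ hg
  obtain ⟨hfin, hle⟩ := card_comm_QM
  -- `Γ` is perfect
  have hperf : commutator Γ = ⊤ := by
    have h1 : (commutator Γ).map σ = ⊤ := by
      rw [commutator_def, Subgroup.map_commutator, ← MonoidHom.range_eq_map, MonoidHom.range_eq_top.2 hσ.1]
      exact perfect_J
    rw [eq_top_iff]
    intro x _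
    have h2 : σ x ∈ (commutator Γ).map σ := by rw [h1]; trivial
    obtain ⟨y, hy, hyx⟩ := h2
    have h3 : y⁻¹ * x ∈ commutator Γ := by
      apply hσ.2.2
      rw [MonoidHom.mem_ker, map_mul, map_inv, hyx, inv_mul_cancel]
    have h4 := (commutator Γ).mul_mem hy h3
    rwa [mul_inv_cancel_left] at h4
  -- every element is a product of an element of the image and a central element
  have hdec : ∀ x : Γ, ∃ q : QM, ∃ a ∈ center Γ, x = φ q * a := by
    intro x
    have h1 : σ.comp φ = (σ.comp φ) := rfl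
    have hs : Function.Surjective (σ.comp φ) := by
      rw [← MonoidHom.range_eq_top, range_eq_Cl (σ.comp φ) (h := qM) (k := qJ) (ng := 6) (fun x => by
        show σ (φ (qM x)) = qJ x
        rw [hφ, hmap]) (qg_top _ _ _)]
      exact UJ.top
    obtain ⟨q, hq⟩ := hs (σ x)
    refine ⟨q, (φ q)⁻¹ * x, hσ.2.1 ?_, by group⟩
    rw [MonoidHom.mem_ker, map_mul, map_inv]
    have hq : σ (φ q) = σ x := hq
    rw [hq, inv_mul_cancel]
  have htop : (commutator QM).map φ = ⊤ := by
    rw [eq_top_iff, ← hperf, commutator_def, Subgroup.commutator_le]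
    intro x _ y _
    obtain ⟨q, a, ha, rfl⟩ := hdec x
    obtain ⟨r, b, hb, rfl⟩ := hdec y
    rw [comm_central _ _ ha hb, ← map_commutatorElement]
    exact ⟨⁅q, r⁆, Subgroup.commutator_mem_commutator trivial trivial, rfl⟩
  have hcard : Nat.card Γ ≤ 150698880 := by
    refine le_trans ?_ hle
    have h1 : Nat.card ((commutator QM).map φ) ≤ Nat.card (commutator QM) :=
      Nat.card_le_card_of_surjective _ (MonoidHom.subgroupMap_surjective φ (commutator QM))
    rw [htop, Subgroup.card_top] at h1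
    exact h1
  rw [card_eq_mul_ker hσ.1, card_J] at hcard
  omega

end Cfsg.Agent.J3M
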